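import Cfsg.Agent.INV.W4.Fus

/-! Fusion in a group containing `S₄ ≀ C₂` with odd index: the class of `b₁`. -/

set_option autoImplicit false

namespace CL.W4
open Subgroup Cfsg CL.MSS

instance (priority := high) decEqM : DecidableEq M := fun x y =>
  decidable_of_iff (x.l = y.l ∧ x.r = y.r ∧ x.s = y.s) Wr.ext_iff.symm

variable {G : Type*} [Group G] {ψ : M →* G}

theorem F_a1 : F ψ a1 z1 := (F.of_psi Y1 (by decide)).symm
theorem F_a1z : F ψ (a1 * z1) z1 := (F.of_io b1 (by decide)).trans F_a1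
theorem F_a2 : F ψ a2 z1 := (F.of_io sw (by decide)).trans F_a1
theorem F_a2z : F ψ (a2 * z2) z1 := (F.of_io sw (by decide)).trans F_a1z

theorem cj_y1 : ∀ x ∈ R2, Cj ψ (ψ Y1) x x := by
  have : ∀ x ∈ R2, Y1 * emb x * Y1⁻¹ = emb x := by decide +kernel
  exact fun x hx => cj_psi (this x hx)

theorem cj_y2 : ∀ x ∈ pr DT DO, Cj ψ (ψ Y2) x x := by
  have : ∀ x ∈ pr DT DO, Y2 * emb x * Y2⁻¹ = emb x := by decide +kernel
  exact fun x hx => cj_psi (this x hx)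

theorem cj_y1z : Cj ψ (ψ Y1) z1 a1 := cj_psi (by decide)
theorem cj_y1a : Cj ψ (ψ Y1) a1 (a1 * z1) := cj_psi (by decide)
theorem cj_y2z : Cj ψ (ψ Y2) z2 a2 := cj_psi (by decide)
theorem cj_y2a : Cj ψ (ψ Y2) a2 (a2 * z2) := cj_psi (by decide)

/-- For `x` in the first factor, `x u` is fused to `x z₂` for `u ∈ A₂^#`. -/
theorem F_mulA2 {x : W} (hx : x ∈ pr DT DO) {u : W} (hu : u = z2 ∨ u = a2 ∨ u = a2 * z2) :
    F ψ (x * u) (x * z2) := by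
  have h1 : F ψ (x * z2) (x * a2) := ((cj_y2 x hx).mul cj_y2z).F
  have h2 : F ψ (x * a2) (x * (a2 * z2)) := ((cj_y2 x hx).mul cj_y2a).F
  rcases hu with rfl | rfl | rfl
  · exact F.refl _
  · exact h1.symm
  · exact (h1.trans h2).symm

theorem F_mulA1 {x : W} (hx : x ∈ R2) {u : W} (hu : u = z1 ∨ u = a1 ∨ u = a1 * z1) :
    F ψ (u * x) (z1 * x) := by
  have h1 : F ψ (z1 * x) (a1 * x) := (cj_y1z.mul (cj_y1 x hx)).F
  have h2 : F ψ (a1 * x) ((a1 * z1) * x) := (cj_y1a.mul (cj_y1 x hx)).F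
  rcases hu with rfl | rfl | rfl
  · exact F.refl _
  · exact h1.symm
  · exact (h1.trans h2).symm

theorem A_cases : ∀ u ∈ A, u = 1 ∨ (u = z1 ∨ u = a1 ∨ u = a1 * z1) ∨
    (u = z2 ∨ u = a2 ∨ u = a2 * z2) ∨ ∃ p q : W, (p = z1 ∨ p = a1 ∨ p = a1 * z1) ∧
      (q = z2 ∨ q = a2 ∨ q = a2 * z2) ∧ u = p * q := by
  have : ∀ u ∈ A, u = 1 ∨ (u = z1 ∨ u = a1 ∨ u = a1 * z1) ∨
    (u = z2 ∨ u = a2 ∨ u = a2 * z2) ∨
      (((⟨u.l, 1, false⟩ : W) = z1 ∨ (⟨u.l, 1, false⟩ : W) = a1 ∨ (⟨u.l, 1, false⟩ : W) = a1 * z1) ∧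
      ((⟨1, u.r, false⟩ : W) = z2 ∨ (⟨1, u.r, false⟩ : W) = a2 ∨ (⟨1, u.r, false⟩ : W) = a2 * z2) ∧
        u = ⟨u.l, 1, false⟩ * ⟨1, u.r, false⟩) := by decide +kernel
  intro u hu
  rcases this u hu with h | h | h | h
  · exact Or.inl h
  · exact Or.inr (Or.inl h)
  · exact Or.inr (Or.inr (Or.inl h))
  · exact Or.inr (Or.inr (Or.inr ⟨_, _, h⟩))

theorem F_A1 {u : W} (hu : u = z1 ∨ u = a1 ∨ u = a1 * z1) : F ψ u z1 := by
  rcases hu with rfl | rfl | rfl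
  exacts [F.refl _, F_a1, F_a1z]

theorem F_A2 {u : W} (hu : u = z2 ∨ u = a2 ∨ u = a2 * z2) : F ψ u z1 := by
  rcases hu with rfl | rfl | rfl
  exacts [Cfg.F_z2, F_a2, F_a2z]

theorem F_A12 {p q : W} (hp : p = z1 ∨ p = a1 ∨ p = a1 * z1)
    (hq : q = z2 ∨ q = a2 ∨ q = a2 * z2) : F ψ (p * q) zz := by
  have h1 : p ∈ pr DT DO := by rcases hp with rfl | rfl | rfl <;> decide
  exact ((F_mulA2 h1 hq).trans (F_mulA1 (by decide) hp)).trans (F.of_io 1 (by decide))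

theorem F_A {u : W} (hu : u ∈ A) (h1 : u ≠ 1) : F ψ u z1 ∨ F ψ u zz := by
  rcases A_cases u hu with h | h | h | ⟨p, q, hp, hq, rfl⟩
  · exact absurd h h1
  · exact Or.inl (F_A1 h)
  · exact Or.inl (F_A2 h)
  · exact Or.inr (F_A12 hp hq)

/-- `n` permutes the five vectors as `π`. -/
def Act (ψ : M →* G) (n : G) (π : Equiv.Perm (Fin 5)) : Prop := ∀ i, Cj ψ n (vv i) (vv (π i))

/-- The permutations of the five vectors induced in `G`. -/
def actS (ψ : M →* G) : Subgroup (Equiv.Perm (Fin 5)) where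
  carrier := {π | ∃ n, Act ψ n π}
  one_mem' := ⟨1, fun i => by simp [Cj]⟩
  mul_mem' := by
    rintro π ρ ⟨n, hn⟩ ⟨m, hm⟩
    exact ⟨n * m, fun i => (hm i).trans (hn (ρ i))⟩
  inv_mem' := by
    rintro π ⟨n, hn⟩
    refine ⟨n⁻¹, fun i => ?_⟩
    have := (hn (π⁻¹ i)).symm
    simpa using this

namespace Cfg
variable (h : Cfg ψ) [Finite G]
include h

theorem b1_fused : F ψ b1 z1 ∨ F ψ b1 zz := by
  obtain ⟨g, u, hu, hϕ, hd⟩ := h.transfer sgB (x := b1) (by decide) sgB_b1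
  have hJ : Dm ψ g P J := h.dmPJ fun w hw => hd w ((f_cb1 w).2 hw)
  obtain ⟨α, hα, e1⟩ := hJ a2 (by decide)
  obtain ⟨β, hβ, e2⟩ := hJ b2 (by decide)
  obtain ⟨u', hu', e3⟩ := hJ b1 (by decide)
  obtain rfl : u' = u := h.tr e3 hu rfl
  have hn : α * β ≠ β * α := fun e => absurd ((h.comm_iff e1 e2).2 e) (by decide)
  have c1 := h.tr_comm hu e1 (by decide)
  have c2 := h.tr_comm hu e2 (by decide)
  have hu1 : u' ≠ 1 := h.F_ne_one hu.F.symm (by decide)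
  have hA : u' ∈ A := f_S3 u' hu' (h.tr_sq hu (by decide)) hu1 (sgB_eq_one _ hϕ)
    (((f_nc α hα β hβ).2.2.2 hn).imp (fun n => f_l hα hβ hu' n c1 c2)
      (fun n => f_r hα hβ hu' n c1 c2))
  exact (F_A hA hu1).imp hu.F.trans hu.F.trans

theorem exists_g : ∃ g y, (y = z1 ∨ y = zz) ∧ Cj ψ g b1 y ∧ Cj ψ g z2 z2 ∧ Dm ψ g P J := by
  rcases h.b1_fused with hF | hF
  · obtain ⟨g, hg, hd⟩ := ext hF h.sylJ
    have hJ : Dm ψ g P J := fun w hw => hd w ((f_cb1 w).2 hw)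
    obtain ⟨α, hα, e1⟩ := hJ a2 (by decide)
    obtain ⟨β, hβ, e2⟩ := hJ b2 (by decide)
    obtain ⟨ζ, -, e3⟩ := hJ z2 (by decide)
    rcases (h.img_z2 hα hβ e1 e2 e3).2 with e | e
    · exact absurd e (h.tr_ne e3 hg (by decide))
    · exact ⟨g, z1, Or.inl rfl, hg, e ▸ e3, hJ⟩
  · obtain ⟨g, hg, hd⟩ := ext hF h.sylT
    have hJ : Dm ψ g P J := h.dmPJ fun w hw => hd w ((f_cb1 w).2 hw)
    obtain ⟨α, hα, e1⟩ := hJ a2 (by decide)
    obtain ⟨β, hβ, e2⟩ := hJ b2 (by decide)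
    obtain ⟨ζ, -, e3⟩ := hJ z2 (by decide)
    rcases (h.img_z2 hα hβ e1 e2 e3).2 with e | e
    · refine ⟨io ψ sw * g, zz, Or.inr rfl, hg.trans (cj_io (by decide)),
        (e ▸ e3).trans (cj_io (by decide)), fun w hw => ?_⟩
      obtain ⟨w', hw', e'⟩ := hJ w hw
      exact ⟨_, f_nJ sw w' hw', e'.trans (cj_io rfl)⟩
    · exact ⟨g, zz, Or.inr rfl, hg, e ▸ e3, hJ⟩

/-- An element normalizing `J` fixes `z₁` or maps it to `z₂`. -/
theorem img_z1 {g : G} (hJ : Dm ψ g J J) : Cj ψ g z1 z1 ∨ Cj ψ g z1 z2 := by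
  obtain ⟨α, hα, e1⟩ := hJ a1 (by decide)
  obtain ⟨β, hβ, e2⟩ := hJ b1 (by decide)
  obtain ⟨ζ, -, e3⟩ := hJ z1 (by decide)
  have s1 : Cj ψ (io ψ sw) a2 a1 := cj_io (by decide)
  have s2 : Cj ψ (io ψ sw) b2 b1 := cj_io (by decide)
  have s3 : Cj ψ (io ψ sw) z2 z1 := cj_io (by decide)
  rcases (h.img_z2 hα hβ (s1.trans e1) (s2.trans e2) (s3.trans e3)).2 with e | e
  · exact Or.inl (e ▸ e3)
  · exact Or.inr (e ▸ e3)

theorem norm_B_of_J {g : G} (hJ : Dm ψ g J J) : g ∈ normalizer (im ψ B : Set G) := by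
  rcases h.img_z1 hJ with e | e
  · exact h.norm_of_fix Z_le_B decB (fun w _ => f_nB w) hJ e
  · have h1 : io ψ sw * g ∈ normalizer (im ψ B : Set G) := by
      refine h.norm_of_fix Z_le_B decB (fun w _ => f_nB w) (fun w hw => ?_)
        (e.trans (cj_io (by decide)))
      obtain ⟨w', hw', e'⟩ := hJ w hw
      exact ⟨_, f_nJ sw w' hw', e'.trans (cj_io rfl)⟩
    exact (Subgroup.mul_mem_cancel_left _ (io_norm (f_nB sw))).1 h1

/-- `B` is weakly closed. -/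
theorem norm_B {g : G} (hd : Dm ψ g B J) (hZ : im ψ Z ≤ g •ᶜ im ψ B) :
    g ∈ normalizer (im ψ B : Set G) := by
  set X := g •ᶜ im ψ B with hX
  have hXJ : X ≤ im ψ J := dm_iff.1 hd
  have h1 : im ψ J ≤ normalizer (X : Set G) := by
    rintro _ ⟨w, hw, rfl⟩
    refine mem_normalizer_of_cj_le (cj_le_iff_forall.2 fun q hq => ?_)
    obtain ⟨x, hx, rfl⟩ := hXJ hq
    have : io ψ w * io ψ x * (io ψ w)⁻¹ = io ψ (w * x * w⁻¹ * x⁻¹) * io ψ x := by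
      simp [map_mul, map_inv]
    rw [this]
    exact X.mul_mem (hZ ⟨_, f_cJZ w hw x hx, rfl⟩) hq
  have h2 : g •ᶜ im ψ J ≤ normalizer (X : Set G) := by
    rw [hX, ← cj_normalizer]
    refine cj_mono g ?_
    rintro _ ⟨w, -, rfl⟩
    exact io_norm (f_nB w)
  obtain ⟨k, hk, e⟩ := h.wcJ.exists_conj h1 le_top (mem_top g) h2
  have h3 : k⁻¹ * g ∈ normalizer (im ψ B : Set G) :=
    h.norm_B_of_J (dm_iff.2 (by rw [cj_mul, e, inv_cj_cj]))
  have h4 := cj_eq_of_mem_normalizer h3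
  rw [cj_mul, ← hX, cj_eq_of_mem_normalizer (Subgroup.inv_mem _ hk)] at h4
  exact mem_normalizer_iff_cj.2 h4

theorem no_swap {n : G} (hn : Dm ψ n E' E') (h1 : Cj ψ n z1 z2) (h2 : Cj ψ n z2 z1) : False := by
  set K := normalizer (im ψ E' : Set G) ⊓ centralizer {io ψ z1} ⊓ centralizer {io ψ z2} with hK
  have hJK : im ψ J ≤ K := by
    rintro _ ⟨w, hw, rfl⟩
    refine ⟨⟨io_norm (f_nE' w hw), ?_⟩, ?_⟩
    · exact mem_centralizer_singleton_iff.2 (cj_self_iff.1 (cj_io (by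
        rw [← f_Zc z1 (by decide) w hw, mul_inv_cancel_right])))
    · exact mem_centralizer_singleton_iff.2 (cj_self_iff.1 (cj_io (by
        rw [← f_Zc z2 (by decide) w hw, mul_inv_cancel_right])))
  have hnK : n •ᶜ K = K := by
    rw [hK, cj_inf, cj_inf, cj_centralizer_singleton, cj_centralizer_singleton, h1, h2,
      cj_eq_of_mem (norm_of_dm hn), inf_assoc, inf_assoc, inf_comm (centralizer _)]
  obtain ⟨k, hk, e⟩ := h.wcJ.exists_conj hJK le_top (mem_top n) (hnK ▸ cj_mono n hJK)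
  have hJ : Dm ψ (k⁻¹ * n) J J := dm_iff.2 (by rw [cj_mul, e, inv_cj_cj])
  have k2 : Cj ψ k z2 z2 := cj_self_iff.2 (mem_centralizer_singleton_iff.1 hk.2)
  have h3 : io ψ sw * (k⁻¹ * n) ∈ normalizer (im ψ E' : Set G) := by
    refine h.norm_of_fix Z_le_E' decE' f_nE' (fun w hw => ?_)
      ((h1.trans k2.symm).trans (cj_io (by decide)))
    obtain ⟨w', hw', e'⟩ := hJ w hw
    exact ⟨_, f_nJ sw w' hw', e'.trans (cj_io rfl)⟩
  have h4 : io ψ sw ∈ normalizer (im ψ E' : Set G) :=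
    (Subgroup.mul_mem_cancel_right _
      (Subgroup.mul_mem _ (Subgroup.inv_mem _ hk.1.1) (norm_of_dm hn))).1 h3
  obtain ⟨w, hw, e'⟩ := dm_of_norm h4 b1 (by decide)
  obtain rfl : w = b2 := h.tr e' (cj_io (w := sw) (by decide)) rfl
  exact absurd hw (by decide)

/-- The structure of the element `g`. -/
theorem exists_g2 : ∃ g y ζ α, (y = z1 ∨ y = zz) ∧ Cj ψ g b1 y ∧ Cj ψ g z2 z2 ∧
    Cj ψ g z1 ζ ∧ (ζ = b1 ∨ ζ = b1 * z1 ∨ ζ = b1 * z2 ∨ ζ = b1 * zz) ∧ Cj ψ g a2 α ∧ α ∈ E' ∧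
    α.r.j = true := by
  obtain ⟨g, y, hy, e1, e2, hJ⟩ := h.exists_g
  have hZ : ∀ c ∈ Z, ∃ w ∈ B, w ≠ z1 ∧ Cj ψ g w c := by
    intro c hc
    have e3 := e1.mul e2
    rcases hy with rfl | rfl <;> rcases f_Z c hc with rfl | rfl | rfl | rfl
    · exact ⟨1, B.one_mem, by decide, Cj.one g⟩
    · exact ⟨b1, by decide, by decide, e1⟩
    · exact ⟨z2, by decide, by decide, e2⟩
    · exact ⟨_, by decide, by decide, e3.of_eq rfl (by decide)⟩
    · exact ⟨1, B.one_mem, by decide, Cj.one g⟩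
    · exact ⟨_, by decide, by decide, e3.of_eq rfl (by decide)⟩
    · exact ⟨z2, by decide, by decide, e2⟩
    · exact ⟨b1, by decide, by decide, e1⟩
  have hB : Dm ψ g B B := dm_of_norm (h.norm_B (hJ.mono (fun x hx => ⟨hx.1, hx.2.1, trivial⟩) le_rfl)
    (by
      rintro _ ⟨c, hc, rfl⟩
      obtain ⟨w, hw, -, e⟩ := hZ c hc
      exact ⟨_, ⟨w, hw, rfl⟩, e⟩))
  obtain ⟨ζ, hζ, e3⟩ := hB z1 (by decide)
  obtain ⟨β, hβ, e4⟩ := hB b2 (by decide)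
  obtain ⟨α, hα, e5⟩ := hJ a2 (by decide)
  have hζZ : ζ ∉ Z := fun hc => by
    obtain ⟨w, -, hw, e⟩ := hZ ζ hc
    exact hw ((h.eq_iff e e3).2 rfl)
  obtain ⟨r1, r2, r3⟩ := f_img ζ hζ hζZ β hβ α hα (h.tr_sq e5 (by decide))
    (h.tr (e5.mul e4) (e2.mul (e4.mul e5)) (by decide)) (h.tr_comm e3 e5 (by decide))
  exact ⟨g, y, ζ, α, hy, e1, e2, e3, r1, e5, r2, r3⟩

omit [Finite G] h in
theorem dmE' {g : G} {y ζ α : W} (e1 : Cj ψ g b1 y) (e2 : Cj ψ g z2 z2) (e3 : Cj ψ g z1 ζ)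
    (e4 : Cj ψ g a2 α) (hy : y ∈ E') (hζ : ζ ∈ E') (hα : α ∈ E') : Dm ψ g E' E' := by
  intro w hw
  have hp : ∀ {x : W}, x ∈ E' → ∀ c, pw x c ∈ E' := fun hx c => by
    cases c
    · exact E'.one_mem
    · exact hx
  exact ⟨_, E'.mul_mem (E'.mul_mem (E'.mul_mem (hp hζ _) (hp hy _)) (hp (by decide) _)) (hp hα _),
    ((((e3.pw _).mul (e1.pw _)).mul (e2.pw _)).mul (e4.pw _)).of_eq (decE'2 w hw).symm rfl⟩

/-- The case `b₁ ∼ z` does not occur. -/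
theorem not_beta {g : G} {ζ α : W} (e1 : Cj ψ g b1 zz) (e2 : Cj ψ g z2 z2) (e3 : Cj ψ g z1 ζ)
    (hζ : ζ = b1 ∨ ζ = b1 * z1 ∨ ζ = b1 * z2 ∨ ζ = b1 * zz) (e4 : Cj ψ g a2 α) (hα : α ∈ E') :
    False := by
  have hE := dmE' e1 e2 e3 e4 (by decide) (by rcases hζ with rfl | rfl | rfl | rfl <;> decide) hα
  have fb : F ψ (b1 * z1) b1 := F.of_io a1 (by decide)
  have fbz : F ψ (b1 * z2) z1 := by
    rcases hζ with rfl | rfl | rfl | rfl
    · exact (h.disj e3.F.symm e1.F).elim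
    · exact (h.disj e3.F.symm (fb.trans e1.F)).elim
    · exact e3.F.symm
    · exact (F.of_io a1 (by decide)).trans e3.F.symm
  have fv : ∀ i, F ψ (vv i) zz := by
    intro i
    fin_cases i
    · exact e1.F
    · exact fb.trans e1.F
    · exact F.refl _
    · exact F_A12 (Or.inl rfl) (Or.inr (Or.inl rfl))
    · exact (F.of_io 1 (by decide)).trans (F_A12 (Or.inl rfl) (Or.inr (Or.inr rfl)))
  have hc : ∀ x ∈ E', x.l = 1 → x = 1 ∨ (x = z2 ∨ x = a2 ∨ x = a2 * z2) := by decide +kernel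
  have hc' : ∀ x ∈ E', x.l.k = true → x.r ≠ 1 → ∃ p q : W, (p = b1 ∨ p = b1 * z1) ∧
      (q = z2 ∨ q = a2 ∨ q = a2 * z2) ∧ x = p * q := by
    have : ∀ x ∈ E', x.l.k = true → x.r ≠ 1 →
        ((⟨x.l, 1, false⟩ : W) = b1 ∨ (⟨x.l, 1, false⟩ : W) = b1 * z1) ∧
      ((⟨1, x.r, false⟩ : W) = z2 ∨ (⟨1, x.r, false⟩ : W) = a2 ∨ (⟨1, x.r, false⟩ : W) = a2 * z2) ∧
      x = ⟨x.l, 1, false⟩ * ⟨1, x.r, false⟩ := by decide +kernel
    exact fun x hx h1 h2 => ⟨_, _, this x hx h1 h2⟩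
  have hπ : ∀ i, ∃ j, Cj ψ g (vv i) (vv j) := by
    intro i
    obtain ⟨x, hx, e⟩ := hE _ (vv_mem i)
    have fx : F ψ x zz := e.F.symm.trans (fv i)
    have x1 : x ≠ 1 := h.F_ne_one fx (by decide)
    rcases vv_cases x hx with h1 | ⟨j, rfl⟩ | h1 | h1 | ⟨h1, h2⟩
    · exact absurd h1 x1
    · exact ⟨j, e⟩
    · exact (h.disj (F_A2 ((hc x hx h1).resolve_left x1)) fx).elim
    · exact (h.disj (h1 ▸ F.refl _) fx).elim
    · obtain ⟨p, q, hp, hq, rfl⟩ := hc' x hx h1 h2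
      refine (h.disj ?_ fx).elim
      rcases hp with rfl | rfl
      · exact (F_mulA2 (by decide) hq).trans fbz
      · exact ((F_mulA2 (by decide) hq).trans (F.of_io a1 (by decide))).trans fbz
  choose f hf using hπ
  have hinj : Function.Injective f := fun i j e =>
    vv_inj i j ((h.eq_iff (hf i) (hf j)).2 (congrArg vv e))
  let π : Equiv.Perm (Fin 5) := Equiv.ofBijective f (Finite.injective_iff_bijective.1 hinj)
  have hπ : π ∈ actS ψ := ⟨g, hf⟩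
  have p0 : π 0 = 2 := vv_inj _ _ (h.tr (hf 0) e1 rfl)
  have p34 := vv_z2 (π 3) (π 4) (h.tr ((hf 3).mul (hf 4)) e2 (by decide))
  have s01 : Equiv.swap 0 1 ∈ actS ψ := ⟨io ψ a1, fun i => cj_io (by revert i; decide)⟩
  have s34 : Equiv.swap 3 4 ∈ actS ψ := ⟨io ψ b2, fun i => cj_io (by revert i; decide)⟩
  have c3 : Equiv.swap 2 4 * Equiv.swap 2 3 ∈ actS ψ :=
    ⟨ψ Y2, fun i => cj_psi (by revert i; decide)⟩
  have p1 : π 1 = 0 ∨ π 1 = 1 := by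
    have n0 : π 1 ≠ π 0 := π.injective.ne (by decide)
    have n3 : π 1 ≠ π 3 := π.injective.ne (by decide)
    have n4 : π 1 ≠ π 4 := π.injective.ne (by decide)
    rw [p0] at n0
    have key : ∀ a b c : Fin 5, a ≠ 2 → a ≠ b → a ≠ c → (b = 3 ∧ c = 4) ∨ (b = 4 ∧ c = 3) →
        a = 0 ∨ a = 1 := by decide
    exact key _ _ _ n0 n3 n4 p34
  have t : Equiv.swap 2 (π 1) ∈ actS ψ := by
    have := (actS ψ).mul_mem ((actS ψ).mul_mem hπ s01) ((actS ψ).inv_mem hπ)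
    rwa [← Equiv.swap_apply_apply, p0] at this
  have cj : ∀ {a b : Equiv.Perm (Fin 5)}, a ∈ actS ψ → b ∈ actS ψ → a * b * a⁻¹ ∈ actS ψ :=
    fun ha hb => (actS ψ).mul_mem ((actS ψ).mul_mem ha hb) ((actS ψ).inv_mem ha)
  have s20 : Equiv.swap 2 0 ∈ actS ψ := by
    rcases p1 with e | e <;> rw [e] at t
    · exact t
    · convert cj s01 t using 1; decide
  have s24 : Equiv.swap 2 4 ∈ actS ψ := by convert cj c3 s34 using 1; decide
  have s04 : Equiv.swap 0 4 ∈ actS ψ := by convert cj s20 s24 using 1; decide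
  have s13 : Equiv.swap 1 3 ∈ actS ψ := by convert cj s01 (cj s34 s04) using 1; decide
  obtain ⟨n, hn⟩ := (actS ψ).mul_mem s04 s13
  have hp : ∀ i c, pw (vv i) c ∈ E' := fun i c => by
    cases c
    · exact E'.one_mem
    · exact vv_mem i
  refine h.no_swap (n := n) (fun w hw => ⟨_, E'.mul_mem (E'.mul_mem (E'.mul_mem (hp _ _) (hp _ _))
    (hp _ _)) (hp _ _), (((((hn 0).pw _).mul ((hn 1).pw _)).mul ((hn 3).pw _)).mul
      ((hn 4).pw _)).of_eq (vv_dec w hw).symm rfl⟩)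
    (((hn 0).mul (hn 1)).of_eq (by decide) (by decide))
    (((hn 3).mul (hn 4)).of_eq (by decide) (by decide))

/-- The case `α`. -/
theorem alpha : F ψ b1 z1 ∧ F ψ (b1 * z2) zz ∧ ∃ x, Cj ψ x z1 z1 ∧ Cj ψ x a1 a1 ∧
    Cj ψ x z2 b2 ∧ Cj ψ x b2 (b2 * z2) := by
  obtain ⟨g, y, ζ, α, hy, e1, e2, e3, hζ, e4, hα, hαj⟩ := h.exists_g2
  rcases hy with rfl | rfl
  swap
  · exact (h.not_beta e1 e2 e3 hζ e4 hα).elim
  have fz : F ψ (b1 * z2) zz := ((e1.mul e2).of_eq rfl (by decide)).F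
  have fz' : F ψ (b1 * z1 * z2) zz := (F.of_io a1 (by decide)).trans fz
  refine ⟨e1.F, fz, ?_⟩
  have hζ' : ζ = b1 ∨ ζ = b1 * z1 := by
    rcases hζ with e | e | rfl | rfl
    · exact Or.inl e
    · exact Or.inr e
    · exact (h.disj e3.F.symm fz).elim
    · exact (h.disj e3.F.symm ((F.of_io 1 (by decide)).trans fz')).elim
  have hc : ∀ x ∈ E', x.r.j = true → (x = a2 ∨ x = a2 * z2) ∨ ∃ p q : W,
      (p = z1 ∨ p = b1 ∨ p = b1 * z1) ∧ (q = z2 ∨ q = a2 ∨ q = a2 * z2) ∧ x = p * q := by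
    have : ∀ x ∈ E', x.r.j = true → (x = a2 ∨ x = a2 * z2) ∨
        (((⟨x.l, 1, false⟩ : W) = z1 ∨ (⟨x.l, 1, false⟩ : W) = b1 ∨
          (⟨x.l, 1, false⟩ : W) = b1 * z1) ∧
      ((⟨1, x.r, false⟩ : W) = z2 ∨ (⟨1, x.r, false⟩ : W) = a2 ∨ (⟨1, x.r, false⟩ : W) = a2 * z2) ∧
      x = ⟨x.l, 1, false⟩ * ⟨1, x.r, false⟩) := by decide +kernel
    exact fun x hx h1 => (this x hx h1).imp_right fun h => ⟨_, _, h⟩
  have fα : F ψ α z1 := e4.F.symm.trans F_a2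
  have hα' : α = a2 ∨ α = a2 * z2 := by
    rcases hc α hα hαj with e | ⟨p, q, hp, hq, rfl⟩
    · exact e
    · refine (h.disj fα ?_).elim
      rcases hp with rfl | rfl | rfl
      · exact F_A12 (Or.inl rfl) hq
      · exact (F_mulA2 (by decide) hq).trans fz
      · exact (F_mulA2 (by decide) hq).trans fz'
  obtain ⟨g1, k1, k2, k3, k4⟩ : ∃ g1, Cj ψ g1 b1 z1 ∧ Cj ψ g1 z2 z2 ∧ Cj ψ g1 z1 ζ ∧
      Cj ψ g1 a2 a2 := by
    rcases hα' with rfl | rfl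
    · exact ⟨g, e1, e2, e3, e4⟩
    · refine ⟨io ψ b2 * g, e1.trans (cj_io (by decide)), e2.trans (cj_io (by decide)),
        e3.trans (cj_io ?_), e4.trans (cj_io (by decide))⟩
      rcases hζ' with rfl | rfl <;> decide
  obtain ⟨x0, l1, l2, l3, l4⟩ : ∃ x0, Cj ψ x0 z2 z2 ∧ Cj ψ x0 a2 a2 ∧ Cj ψ x0 z1 b1 ∧
      Cj ψ x0 b1 (b1 * z1) := by
    rcases hζ' with rfl | rfl
    · refine ⟨g1 * io ψ a1, (cj_io (by decide)).trans k2, (cj_io (by decide)).trans k4,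
        (cj_io (by decide)).trans k3, (cj_io (y := b1 * z1) (by decide)).trans
          ((k1.mul k3).of_eq rfl (by decide))⟩
    · exact ⟨g1⁻¹, k2.symm, k4.symm, k1.symm,
        ((k3.mul k1).symm).of_eq (by decide) (by decide)⟩
  have s : ∀ {u v : W}, Cj ψ x0 u v → Cj ψ (io ψ sw * (x0 * io ψ sw)) (sw * u * sw⁻¹)
      (sw * v * sw⁻¹) := fun {u v} e =>
    ((cj_io (w := sw) (y := u) (by
      rw [show sw * (sw * u * sw⁻¹) * sw⁻¹ = (sw * sw) * u * (sw * sw)⁻¹ by group,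
        show sw * sw = 1 by decide]; simp)).trans e).trans (cj_io rfl)
  exact ⟨_, (s l1).of_eq (by decide) (by decide), (s l2).of_eq (by decide) (by decide),
    (s l3).of_eq (by decide) (by decide), (s l4).of_eq (by decide) (by decide)⟩

end Cfg

end CL.W4
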