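import Cfsg.Agent.INV.W4.Facts
import Cfsg.Agent.TECH.ExtTransfer
import Cfsg.Agent.TECH.WeakClosed
import Cfsg.Agent.INV.IndexTwo

/-! Fusion in a group containing `S₄ ≀ C₂` with odd index: basic tools. -/

set_option autoImplicit false

namespace CL.W4
open Subgroup Cfsg CL.MSS

variable {G : Type*} [Group G]

/-- The embedding of the Sylow 2-subgroup. -/
def io (ψ : M →* G) : W →* G := ψ.comp emb

/-- `g` conjugates `x` to `y`. -/
def Cj (ψ : M →* G) (g : G) (x y : W) : Prop := g * io ψ x * g⁻¹ = io ψ y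

/-- `x` is fused to `y`. -/
def F (ψ : M →* G) (x y : W) : Prop := ∃ g, Cj ψ g x y

/-- The image of a subgroup of `W`. -/
abbrev im (ψ : M →* G) (X : Subgroup W) : Subgroup G := X.map (io ψ)

/-- `g` conjugates `X` into `Y`. -/
def Dm (ψ : M →* G) (g : G) (X Y : Subgroup W) : Prop := ∀ w ∈ X, ∃ w' ∈ Y, Cj ψ g w w'

variable {ψ : M →* G}

theorem Cj.one (g : G) : Cj ψ g 1 1 := by simp [Cj]

theorem Cj.mul {g : G} {x y x' y' : W} (h : Cj ψ g x y) (h' : Cj ψ g x' y') :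
    Cj ψ g (x * x') (y * y') := by
  unfold Cj at *
  rw [map_mul, map_mul, ← h, ← h']; group

theorem Cj.symm {g : G} {x y : W} (h : Cj ψ g x y) : Cj ψ g⁻¹ y x := by
  unfold Cj at *
  rw [← h]; group

theorem Cj.trans {g g' : G} {x y w : W} (h : Cj ψ g x y) (h' : Cj ψ g' y w) :
    Cj ψ (g' * g) x w := by
  unfold Cj at *
  rw [← h', ← h]; group

theorem Cj.of_eq {g : G} {x y x' y' : W} (h : Cj ψ g x y) (hx : x = x') (hy : y = y') :
    Cj ψ g x' y' := hx ▸ hy ▸ h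

theorem Cj.pw {g : G} {x y : W} (h : Cj ψ g x y) (c : Bool) : Cj ψ g (pw x c) (pw y c) := by
  cases c
  · exact Cj.one g
  · exact h

theorem cj_io {w x y : W} (h : w * x * w⁻¹ = y) : Cj ψ (io ψ w) x y := by
  unfold Cj
  rw [← h, map_mul, map_mul, map_inv]

theorem cj_psi {m : M} {x y : W} (h : m * emb x * m⁻¹ = emb y) : Cj ψ (ψ m) x y := by
  unfold Cj io
  simp only [MonoidHom.comp_apply]
  rw [← h, map_mul, map_mul, map_inv]

theorem cj_self_iff {g : G} {x : W} : Cj ψ g x x ↔ g * io ψ x = io ψ x * g := by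
  unfold Cj
  rw [mul_inv_eq_iff_eq_mul]

theorem F.refl (x : W) : F ψ x x := ⟨1, by simp [Cj]⟩
theorem F.symm {x y : W} (h : F ψ x y) : F ψ y x := h.imp' (·⁻¹) fun _ => Cj.symm
theorem F.trans {x y w : W} (h : F ψ x y) (h' : F ψ y w) : F ψ x w :=
  let ⟨_, h⟩ := h; let ⟨_, h'⟩ := h'; ⟨_, h.trans h'⟩
theorem Cj.F {g : G} {x y : W} (h : Cj ψ g x y) : F ψ x y := ⟨g, h⟩
theorem F.of_io (w : W) {x y : W} (h : w * x * w⁻¹ = y) : F ψ x y := ⟨_, cj_io h⟩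
theorem F.of_psi (m : M) {x y : W} (h : m * emb x * m⁻¹ = emb y) : F ψ x y := ⟨_, cj_psi h⟩

theorem dm_iff {g : G} {X Y : Subgroup W} : Dm ψ g X Y ↔ g •ᶜ im ψ X ≤ im ψ Y := by
  rw [cj_le_iff_forall]
  constructor
  · rintro h _ ⟨w, hw, rfl⟩
    obtain ⟨w', hw', e⟩ := h w hw
    exact ⟨w', hw', Eq.symm e⟩
  · intro h w hw
    obtain ⟨w', hw', e⟩ := h _ ⟨w, hw, rfl⟩
    exact ⟨w', hw', e.symm⟩

theorem Dm.mono {g : G} {X Y X' Y' : Subgroup W} (h : Dm ψ g X Y) (hX : X' ≤ X) (hY : Y ≤ Y') :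
    Dm ψ g X' Y' := fun w hw => let ⟨w', h1, h2⟩ := h w (hX hw); ⟨w', hY h1, h2⟩

theorem dm_of_norm {g : G} {X : Subgroup W} (h : g ∈ normalizer (im ψ X : Set G)) :
    Dm ψ g X X := dm_iff.2 (cj_eq_of_mem_normalizer h).le

theorem norm_of_dm [Finite G] {g : G} {X : Subgroup W} (h : Dm ψ g X X) :
    g ∈ normalizer (im ψ X : Set G) := mem_normalizer_of_cj_le (dm_iff.1 h)

theorem io_norm [Finite G] {w : W} {X : Subgroup W} (h : ∀ x ∈ X, w * x * w⁻¹ ∈ X) :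
    io ψ w ∈ normalizer (im ψ X : Set G) :=
  norm_of_dm fun x hx => ⟨_, h x hx, cj_io rfl⟩

theorem isPGroup_W : IsPGroup 2 W := IsPGroup.of_card card_W

theorem isPGroup_im (X : Subgroup W) : IsPGroup 2 (im ψ X) :=
  (isPGroup_W.to_subgroup X).map _

/-- The configuration: `S₄ ≀ C₂` embedded with odd index in a group with no subgroup of
index 2. -/
structure Cfg (ψ : M →* G) : Prop where
  inj : Function.Injective ψ
  syl : SylIn 2 (im ψ ⊤) ⊤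
  no2 : ∀ H : Subgroup G, H.index ≠ 2

namespace Cfg
variable (h : Cfg ψ)
include h

theorem io_inj : Function.Injective (io ψ) := h.inj.comp emb_injective

theorem eq_iff {g : G} {x y x' y' : W} (h1 : Cj ψ g x y) (h2 : Cj ψ g x' y') :
    x = x' ↔ y = y' := by
  unfold Cj at *
  constructor
  · rintro rfl
    exact h.io_inj (h1.symm.trans h2)
  · rintro rfl
    apply h.io_inj
    have := h1.trans h2.symm
    simpa using this

theorem tr {g : G} {x y x' y' : W} (h1 : Cj ψ g x y) (h2 : Cj ψ g x' y') (e : x = x') :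
    y = y' := (h.eq_iff h1 h2).1 e

theorem tr_ne {g : G} {x y x' y' : W} (h1 : Cj ψ g x y) (h2 : Cj ψ g x' y') (e : x ≠ x') :
    y ≠ y' := fun e' => e ((h.eq_iff h1 h2).2 e')

theorem tr_comm {g : G} {x y x' y' : W} (h1 : Cj ψ g x y) (h2 : Cj ψ g x' y')
    (e : x * x' = x' * x) : y * y' = y' * y := h.tr (h1.mul h2) (h2.mul h1) e

theorem comm_iff {g : G} {x y x' y' : W} (h1 : Cj ψ g x y) (h2 : Cj ψ g x' y') :
    x * x' = x' * x ↔ y * y' = y' * y := h.eq_iff (h1.mul h2) (h2.mul h1)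

theorem tr_sq {g : G} {x y : W} (h1 : Cj ψ g x y) (e : x * x = 1) : y * y = 1 :=
  h.tr (h1.mul h1) (Cj.one g) e

theorem sq_iff {g : G} {x y : W} (h1 : Cj ψ g x y) : x * x = 1 ↔ y * y = 1 :=
  h.eq_iff (h1.mul h1) (Cj.one g)

theorem F_ne_one {x y : W} (h1 : F ψ x y) (e : y ≠ 1) : x ≠ 1 := by
  obtain ⟨g, hg⟩ := h1
  exact fun e' => e (h.tr hg (Cj.one g) e')

theorem mem_im {x : W} {X : Subgroup W} : io ψ x ∈ im ψ X ↔ x ∈ X :=
  mem_map_iff_mem h.io_inj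

/-- An elementary abelian subgroup of order 16 can only be conjugated into `J`. -/
theorem dmJ {X : Subgroup W} [DecidablePred (· ∈ X)] (hX : E16 X) {g : G} (hd : Dm ψ g X ⊤) :
    Dm ψ g X J := by
  classical
  intro x hx
  obtain ⟨y, -, hxy⟩ := hd x hx
  refine ⟨y, mem_J.2 ?_, hxy⟩
  by_contra hs
  have hs' : y.s = true := by simpa using hs
  have h12 := f_inv12 y hs' (h.tr_sq hxy (hX.sq x hx))
  choose! f hf using hd
  have hle : (Finset.univ.filter (· ∈ X)).card ≤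
      (Finset.univ.filter (fun w : W => w * w = 1 ∧ w * y = y * w)).card := by
    refine Finset.card_le_card_of_injOn f (fun w hw => ?_) (fun w hw w' hw' e => ?_)
    · have hw' : w ∈ X := by simpa using hw
      simp only [Finset.coe_filter, Finset.mem_univ, true_and, Set.mem_ofPred_eq]
      exact ⟨h.tr_sq (hf w hw').2 (hX.sq w hw'), h.tr_comm (hf w hw').2 hxy (hX.comm w hw' x hx)⟩
    · have h1 : w ∈ X := by simpa using hw
      have h2 : w' ∈ X := by simpa using hw'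
      exact (h.eq_iff (hf w h1).2 (hf w' h2).2).2 e
  rw [hX.card] at hle
  omega

theorem dmJJ {g : G} (hd : Dm ψ g J ⊤) : Dm ψ g J J := by
  intro w hw
  obtain ⟨p, hp, q, hq, rfl⟩ := decJ w hw
  obtain ⟨p', hp', e1⟩ := h.dmJ e16A (hd.mono (fun x hx => mem_J.2 hx.1) le_rfl) p hp
  obtain ⟨q', hq', e2⟩ := h.dmJ e16B (hd.mono (fun x hx => mem_J.2 hx.1) le_rfl) q hq
  exact ⟨_, J.mul_mem hp' hq', e1.mul e2⟩

theorem dmPJ {g : G} (hd : Dm ψ g P ⊤) : Dm ψ g P J := by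
  intro w hw
  obtain ⟨p, hp, q, hq, rfl⟩ := decP w hw
  obtain ⟨p', hp', e1⟩ := h.dmJ e16E' (hd.mono (fun x hx => ⟨hx.1, hx.2.1, trivial⟩) le_rfl) p hp
  obtain ⟨q', hq', e2⟩ := h.dmJ e16B (hd.mono (fun x hx => ⟨hx.1, hx.2.1, trivial⟩) le_rfl) q hq
  exact ⟨_, J.mul_mem hp' hq', e1.mul e2⟩

variable [Finite G]

theorem wcJ : WC 2 (im ψ J) ⊤ :=
  wc_of_sylIn h.syl (map_mono le_top) fun _ _ hg => cj_eq_of_le (dm_iff.1 (h.dmJJ (dm_iff.2 hg)))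

omit h in
/-- Extremal conjugation. -/
theorem ext {x y : W} (hF : F ψ x y) {S : Subgroup W}
    (hS : SylIn 2 (im ψ S) (centralizer {io ψ y})) :
    ∃ g, Cj ψ g x y ∧ ∀ w, w * x = x * w → ∃ w' ∈ S, Cj ψ g w w' := by
  obtain ⟨g, hg⟩ := hF
  have hle : g •ᶜ im ψ (centralizer {x}) ≤ centralizer {io ψ y} := by
    rw [cj_le_iff_forall]
    rintro _ ⟨w, hw, rfl⟩
    rw [mem_centralizer_singleton_iff, ← hg]
    have hw' : w * x = x * w := mem_centralizer_singleton_iff.1 hw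
    have : io ψ w * io ψ x = io ψ x * io ψ w := by rw [← map_mul, hw', map_mul]
    calc g * io ψ w * g⁻¹ * (g * io ψ x * g⁻¹) = g * (io ψ w * io ψ x) * g⁻¹ := by group
      _ = _ := by rw [this]; group
  obtain ⟨c, hc, hcS⟩ := hS.exists_conj_le (isPGroup_cj g (isPGroup_im _)) hle
  refine ⟨c * g, hg.trans (cj_self_iff.2 (mem_centralizer_singleton_iff.1 hc)), fun w hw => ?_⟩
  rw [← cj_mul] at hcS
  exact dm_iff.2 hcS w (mem_centralizer_singleton_iff.2 hw)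

omit [Finite G] in
theorem sylT : SylIn 2 (im ψ ⊤) (centralizer {io ψ zz}) := by
  refine h.syl.of_le ?_ le_top
  rintro _ ⟨w, -, rfl⟩
  rw [mem_centralizer_singleton_iff, ← map_mul, f_cz, map_mul]

/-- `z₁` is not fused to `z`. -/
theorem not_F : ¬ F ψ z1 zz := by
  intro hF
  obtain ⟨g, hg, hd⟩ := ext hF h.sylT
  have hJ : Dm ψ g J J := h.dmJJ fun w hw => hd w ((f_cz1 w).2 hw)
  obtain ⟨α1, hα1, e1⟩ := hJ a1 (by decide)
  obtain ⟨β1, hβ1, e2⟩ := hJ b1 (by decide)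
  obtain ⟨α2, hα2, e3⟩ := hJ a2 (by decide)
  obtain ⟨β2, hβ2, e4⟩ := hJ b2 (by decide)
  have hc : α1 * β1 = zz * (β1 * α1) := h.tr (e1.mul e2) (hg.mul (e2.mul e1)) (by decide)
  obtain ⟨hl, hr⟩ := (f_nc α1 hα1 β1 hβ1).2.2.1 hc
  have c1 := h.tr_comm e3 e1 (by decide)
  have c2 := h.tr_comm e3 e2 (by decide)
  have hZ : α2 ∈ Z := ⟨hα2.1, f_l hα1 hβ1 hα2 hl c1 c2, f_r hα1 hβ1 hα2 hr c1 c2⟩
  exact absurd ((h.comm_iff e3 e4).2 (f_Zc _ hZ _ hβ2)) (by decide)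

theorem disj {x : W} (h1 : F ψ x z1) (h2 : F ψ x zz) : False := h.not_F (h1.symm.trans h2)

theorem sylJ : SylIn 2 (im ψ J) (centralizer {io ψ z1}) := by
  refine ⟨?_, isPGroup_im _, fun Q hQ hJQ hQC => le_antisymm ?_ hJQ⟩
  · rintro _ ⟨w, hw, rfl⟩
    rw [mem_centralizer_singleton_iff, ← map_mul, (f_cz1 w).2 hw, map_mul]
  obtain ⟨g, -, hg⟩ := h.syl.exists_conj_le hQ le_top
  have hJ : Dm ψ g J J := h.dmJJ (dm_iff.2 ((cj_mono g hJQ).trans hg))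
  have hJ' : g •ᶜ im ψ J = im ψ J := cj_eq_of_le (dm_iff.1 hJ)
  rw [← cj_le_cj_iff g, hJ', cj_le_iff_forall]
  intro q hq
  obtain ⟨w, -, hw⟩ := hg (conj_mem_cj hq)
  rw [← hw, h.mem_im, mem_J]
  by_contra hs
  have hs' : w.s = true := by simpa using hs
  obtain ⟨u, -, hu⟩ := hJ z1 (by decide)
  have hJi : Dm ψ g⁻¹ J J := dm_iff.2 (by rw [cj_le_iff, inv_inv, hJ'])
  have hcu : ∀ y ∈ J, u * y = y * u := fun y hy => by
    obtain ⟨y', hy', e⟩ := hJi y hy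
    have e' := e.symm
    rw [inv_inv] at e'
    exact h.tr_comm hu e' ((f_cz1 y').2 hy').symm
  have huZ := f_cJ u (hcu _ (by decide)) (hcu _ (by decide)) (hcu _ (by decide))
    (hcu _ (by decide))
  have huw : u * w = w * u := by
    apply h.io_inj
    have hq' : q * io ψ z1 = io ψ z1 * q := mem_centralizer_singleton_iff.1 (hQC hq)
    rw [map_mul, map_mul, hw, ← hu]
    calc g * io ψ z1 * g⁻¹ * (g * q * g⁻¹) = g * (io ψ z1 * q) * g⁻¹ := by group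
      _ = _ := by rw [← hq']; group
  rcases f_cT u huZ w hs' huw with e | e
  · exact h.F_ne_one (hu.F.symm) (by decide) e
  · exact h.not_F (e ▸ hu.F)

omit [Finite G] h in
theorem F_z2 : F ψ z2 z1 := F.of_io sw (by decide)

/-- The Thompson transfer lemma in the model. -/
theorem transfer (ϕ : W →* Multiplicative (ZMod 2)) {x : W} (hx : x * x = 1) (h1 : ϕ x ≠ 1) :
    ∃ g u, Cj ψ g x u ∧ ϕ u = 1 ∧ ∀ w, w * x = x * w → ∃ w' ∈ (⊤ : Subgroup W), Cj ψ g w w' := by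
  let e : (⊤ : Subgroup W) ≃* im ψ ⊤ := (⊤ : Subgroup W).equivMapOfInjective _ h.io_inj
  let ϕ' : im ψ ⊤ →* Multiplicative (ZMod 2) :=
    ϕ.comp ((⊤ : Subgroup W).subtype.comp e.symm.toMonoidHom)
  have hϕ : ∀ (w : W) (y : G) (hy : y ∈ im ψ ⊤), io ψ w = y → ϕ' ⟨y, hy⟩ = ϕ w := by
    rintro w _ hy rfl
    have : (⟨io ψ w, hy⟩ : im ψ ⊤) = e ⟨w, trivial⟩ := rfl
    simp only [ϕ', this, MonoidHom.comp_apply, MulEquiv.coe_toMonoidHom, MulEquiv.symm_apply_apply]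
    rfl
  have hodd : Odd (im ψ ⊤).index := by
    have := h.syl.not_dvd_relIndex
    rw [relIndex_top_right] at this
    exact Nat.not_even_iff_odd.1 fun h' => this h'.two_dvd
  have hx' : io ψ x ∈ im ψ ⊤ := ⟨x, trivial, rfl⟩
  have h2 : ∀ a b : Multiplicative (ZMod 2), b ≠ 1 → a = 1 ∨ a = b := by decide
  obtain ⟨g, hg, hg1, hR⟩ := extremal_transfer hodd
    (IsPGroup.of_card (p := 2) (n := 1) (by simp)) ϕ' (y := io ψ x)
    (by rw [CL.Iso.pResidual_two_eq_top_iff.2 h.no2]; trivial)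
    (by rw [← map_mul, hx, map_one]) hx' (by rw [hϕ x _ _ rfl]; exact h1)
    (fun g hg => h2 _ _ (by rw [hϕ x _ _ rfl]; exact h1))
    (isPGroup_im (ψ := ψ) (centralizer {x})) (by
      rintro _ ⟨w, hw, rfl⟩
      rw [mem_centralizer_singleton_iff, ← map_mul, mem_centralizer_singleton_iff.1 hw, map_mul])
  obtain ⟨u, -, hu⟩ := id hg
  refine ⟨g, u, hu.symm, by rw [← hϕ u _ hg hu]; exact hg1, fun w hw => ?_⟩
  exact dm_iff.2 hR w (mem_centralizer_singleton_iff.2 hw)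

/-- The image of `z₂`. -/
theorem img_z2 {g : G} {α β ζ : W} (hα : α ∈ J) (hβ : β ∈ J) (e1 : Cj ψ g a2 α)
    (e2 : Cj ψ g b2 β) (e3 : Cj ψ g z2 ζ) : α * β = ζ * (β * α) ∧ (ζ = z1 ∨ ζ = z2) := by
  have hc : α * β = ζ * (β * α) := h.tr (e1.mul e2) (e3.mul (e2.mul e1)) (by decide)
  refine ⟨hc, ?_⟩
  have hZ := f_comm α hα β hβ
  rw [hc, mul_inv_cancel_right] at hZ
  rcases f_Z ζ hZ with e | e | e | e
  · exact absurd e (h.F_ne_one e3.F.symm (by decide))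
  · exact Or.inl e
  · exact Or.inr e
  · exact (h.disj F_z2 (e ▸ e3.F)).elim

theorem fix_z2 {g : G} (hJ : Dm ψ g J J) (h1 : Cj ψ g z1 z1) : Cj ψ g z2 z2 := by
  obtain ⟨α, hα, e1⟩ := hJ a2 (by decide)
  obtain ⟨β, hβ, e2⟩ := hJ b2 (by decide)
  obtain ⟨ζ, -, e3⟩ := hJ z2 (by decide)
  rcases (h.img_z2 hα hβ e1 e2 e3).2 with e | e
  · exact absurd e (h.tr_ne e3 h1 (by decide))
  · exact e ▸ e3

omit [Finite G] h in
theorem fix_Z {g : G} (h1 : Cj ψ g z1 z1) (h2 : Cj ψ g z2 z2) : ∀ c ∈ Z, Cj ψ g c c := by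
  intro c hc
  rcases f_Z c hc with rfl | rfl | rfl | rfl
  · exact Cj.one g
  · exact h1
  · exact h2
  · exact (h1.mul h2).of_eq (by decide) (by decide)

theorem sq_step {g : G} (hJ : Dm ψ g J J) (h1 : Cj ψ g z1 z1) {x : W}
    (hx : (T1 x ∨ x ∈ Z) ∨ (T2 x ∨ x ∈ Z)) : ∃ c ∈ Z, Cj ψ (g * g) x (x * c) := by
  have h2 := h.fix_z2 hJ h1
  have hZ := fix_Z h1 h2
  have hnZ : ∀ {u u' : W}, Cj ψ g u u' → u ∉ Z → u' ∉ Z := fun e hu hu' =>
    hu ((h.eq_iff e (hZ _ hu')).2 rfl ▸ hu')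
  obtain ⟨α1, hα1, e1⟩ := hJ a1 (by decide)
  obtain ⟨β1, hβ1, e2⟩ := hJ b1 (by decide)
  obtain ⟨α2, hα2, e3⟩ := hJ a2 (by decide)
  obtain ⟨β2, hβ2, e4⟩ := hJ b2 (by decide)
  have n1 := (f_nc α1 hα1 β1 hβ1).1 (h.tr (e1.mul e2) (h1.mul (e2.mul e1)) (by decide))
  have n2 := (f_nc α2 hα2 β2 hβ2).2.1 (h.tr (e3.mul e4) (h2.mul (e4.mul e3)) (by decide))
  have s1 : ∀ u, T1 u → ∃ u', T1 u' ∧ Cj ψ g u u' := fun u hu => by
    obtain ⟨u', hu', e⟩ := hJ u hu.1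
    exact ⟨u', ⟨hu', h.tr_sq e hu.2.1, f_r hα2 hβ2 hu' n2 (h.tr_comm e e3 (f_T1c u hu).1)
      (h.tr_comm e e4 (f_T1c u hu).2), hnZ e hu.2.2.2⟩, e⟩
  have s2 : ∀ u, T2 u → ∃ u', T2 u' ∧ Cj ψ g u u' := fun u hu => by
    obtain ⟨u', hu', e⟩ := hJ u hu.1
    exact ⟨u', ⟨hu', h.tr_sq e hu.2.1, f_l hα1 hβ1 hu' n1 (h.tr_comm e e1 (f_T2c u hu).1)
      (h.tr_comm e e2 (f_T2c u hu).2), hnZ e hu.2.2.2⟩, e⟩
  have sZ : x ∈ Z → ∃ c ∈ Z, Cj ψ (g * g) x (x * c) := fun hx =>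
    ⟨1, Z.one_mem, ((hZ x hx).trans (hZ x hx)).of_eq rfl (mul_one x).symm⟩
  rcases hx with (hx | hx) | (hx | hx)
  · obtain ⟨u', hu', e⟩ := s1 x hx
    obtain ⟨u'', hu'', e'⟩ := s1 u' hu'
    exact ⟨_, f_T1 x hx u' hu' u'' hu'' (h.comm_iff e e'),
      (e.trans e').of_eq rfl (by group)⟩
  · exact sZ hx
  · obtain ⟨u', hu', e⟩ := s2 x hx
    obtain ⟨u'', hu'', e'⟩ := s2 u' hu'
    exact ⟨_, f_T2 x hx u' hu' u'' hu'' (h.comm_iff e e'),
      (e.trans e').of_eq rfl (by group)⟩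
  · exact sZ hx

/-- An element normalizing `J` and centralizing `z₁` normalizes `B` and `E'`. -/
theorem norm_of_fix {X : Subgroup W} (hZX : Z ≤ X)
    (hdec : ∀ w ∈ X, ∃ p, (T1 p ∨ p ∈ Z) ∧ p ∈ X ∧ ∃ q, (T2 q ∨ q ∈ Z) ∧ q ∈ X ∧ w = p * q)
    (hn : ∀ w ∈ J, ∀ x ∈ X, w * x * w⁻¹ ∈ X)
    {g : G} (hJ : Dm ψ g J J) (h1 : Cj ψ g z1 z1) : g ∈ normalizer (im ψ X : Set G) := by
  have hsq : g * g ∈ normalizer (im ψ X : Set G) := norm_of_dm fun w hw => by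
    obtain ⟨p, hp, hpX, q, hq, hqX, rfl⟩ := hdec w hw
    obtain ⟨c, hc, e⟩ := h.sq_step hJ h1 (Or.inl hp)
    obtain ⟨c', hc', e'⟩ := h.sq_step hJ h1 (Or.inr hq)
    exact ⟨_, X.mul_mem (X.mul_mem hpX (hZX hc)) (X.mul_mem hqX (hZX hc')), e.mul e'⟩
  set N := centralizer {io ψ z1} ⊓ normalizer (im ψ J : Set G) with hN
  have hS : SylIn 2 (im ψ J) N := h.sylJ.inf_of_le le_normalizer
  have hg : g ∈ N := ⟨mem_centralizer_singleton_iff.2 (cj_self_iff.1 h1), norm_of_dm hJ⟩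
  have hnorm : ((im ψ J).subgroupOf N).Normal :=
    normal_subgroupOf_of_le_normalizer (inf_le_right : N ≤ _)
  have hpow : g ^ (im ψ J).relIndex N ∈ im ψ J :=
    ((im ψ J).subgroupOf N).pow_index_mem (g := ⟨g, hg⟩)
  obtain ⟨k, hk⟩ : Odd ((im ψ J).relIndex N) :=
    Nat.not_even_iff_odd.1 fun h' => hS.not_dvd_relIndex h'.two_dvd
  have hm : g ^ (im ψ J).relIndex N ∈ normalizer (im ψ X : Set G) := by
    obtain ⟨w, hw, e⟩ := hpow
    rw [← e]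
    exact io_norm (hn w hw)
  have : g = ((g * g) ^ k)⁻¹ * g ^ (im ψ J).relIndex N := by
    rw [hk, ← sq, ← pow_mul, pow_succ]; group
  rw [this]
  exact Subgroup.mul_mem _ (Subgroup.inv_mem _ (Subgroup.pow_mem _ hsq k)) hm

end Cfg

end CL.W4
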